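import Mathlib
import Cfsg.Prelude.Def_ClassicalGeometry
import Cfsg.Agent.H181.Families
import Cfsg.Agent.H181.FormNondeg
import Cfsg.Agent.ClassicalGeometry.QuadPlusBasic
import Cfsg.Agent.H183.OrthSum
set_option linter.all false

/-!
The standard maximal totally singular subspace `{y = 0}` of `Σ x_i y_i`: its class is preserved by an
isometry iff the Dickson sign is `1`.
-/

set_option autoImplicit false

namespace Cfsg.Agent.H181.PlusFamilies

open QuadraticMap Matrix Module Cfsg.Agent.H181.Families Cfsg.Agent.H181.FormNondeg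
open Cfsg.Agent.LieClassical.OrthForms Cfsg.Agent.ClassicalGeometry.QuadPlusBasic

variable (m : ℕ) (F : Type*) [Field F]

theorem ker_funLeft_eq :
    LinearMap.ker (LinearMap.funLeft F F (Sum.inr : Fin m → Fin m ⊕ Fin m)) = stdX m F := by
  ext v
  rw [LinearMap.mem_ker, mem_stdX]
  constructor
  · intro h i
    exact congrFun h i
  · intro h
    funext i
    exact h i

theorem isMaxSing_ker :
    IsMaxSing (plusForm m F) m
      (LinearMap.ker (LinearMap.funLeft F F (Sum.inr : Fin m → Fin m ⊕ Fin m))) := by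
  rw [ker_funLeft_eq]
  refine ⟨finrank_stdX m F, fun u hu => ?_⟩
  rw [coe_plusForm]
  exact quadFormPlus_stdX m F u hu

theorem card_two_mul : Fintype.card (Fin m ⊕ Fin m) = 2 * m := by
  rw [Fintype.card_sum, Fintype.card_fin]; ring

theorem exc [Fintype F] (h : Fintype.card F ≠ 2 ∨ m ≠ 2) :
    (∃ θ : F, θ ≠ 0 ∧ θ ≠ 1) ∨ Fintype.card (Fin m ⊕ Fin m) ≠ 4 := by
  rcases h with h | h
  · exact Or.inl (Cfsg.Agent.ClassicalGeometry.OrthDickson.exists_ne_zero_ne_one h)
  · right
    rw [card_two_mul]
    omega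

end Cfsg.Agent.H181.PlusFamilies
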